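import Mathlib
import Cfsg.Agent.FGS.Kreknin
/-! On-demand lemmas of `CL.Krek.glcs`, realised once for the whole library (generated by cf). -/
set_option linter.all false
theorem CL.Eqns.CL_Krek_glcs_eq_def : type_of% @CL.Krek.glcs.eq_def := @CL.Krek.glcs.eq_def
theorem CL.Eqns.CL_Krek_glcs_eq_unfold : type_of% @CL.Krek.glcs.eq_unfold := @CL.Krek.glcs.eq_unfold
theorem CL.Eqns.CL_Krek_glcs_induct : type_of% @CL.Krek.glcs.induct := @CL.Krek.glcs.induct
theorem CL.Eqns.CL_Krek_glcs_induct_unfolding : type_of% @CL.Krek.glcs.induct_unfolding := @CL.Krek.glcs.induct_unfolding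
theorem CL.Eqns.CL_Krek_glcs_fun_cases : type_of% @CL.Krek.glcs.fun_cases := @CL.Krek.glcs.fun_cases
theorem CL.Eqns.CL_Krek_glcs_fun_cases_unfolding : type_of% @CL.Krek.glcs.fun_cases_unfolding := @CL.Krek.glcs.fun_cases_unfolding
theorem CL.Eqns.CL_Krek_glcs_congr_simp : type_of% @CL.Krek.glcs.congr_simp := @CL.Krek.glcs.congr_simp
theorem CL.Eqns.CL_Krek_glcs_eq_1 : type_of% @CL.Krek.glcs.eq_1 := @CL.Krek.glcs.eq_1
theorem CL.Eqns.CL_Krek_glcs_eq_2 : type_of% @CL.Krek.glcs.eq_2 := @CL.Krek.glcs.eq_2
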